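/-
Primitive groups with a doubly transitive suborbit (S3617): the central case, by reduction to F-sets.
-/
import Cfsg.Agent.DT.Defs

set_option autoImplicit false

open Cfsg Subgroup CL.Grp CL.Even MulAction
open CL.FSet (dr dg dr_sup_le dr_mono dr_le n_dr pr_isP pr_comm le_dg dg_le_of cj_le_br)

namespace CL.DT

universe u

namespace CenH

variable {A Ω : Type u} [Group A] [MulAction A Ω] {T S : Subgroup A} {b : Ω} {x u : A} {p q : ℕ}

theorem cjz (g x : A) : cj g (zpowers x) = zpowers (g * x * g⁻¹) := MonoidHom.map_zpowers _ _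

theorem cj_dr (g : A) (H K : Subgroup A) : cj g (dr (H ⊔ K)) = dr (cj g H ⊔ cj g K) := by
  rw [dr, cj_commutator, cj_sup]

theorem cen0 (hx : Zc T b x) {t : A} (ht : t ∈ T) (tb : t • b = b) : t ∈ 𝒞(zpowers x) :=
  mem_centralizer_iff.2 (by
    rintro _ ⟨n, rfl⟩
    exact (((hx.iff t ht).1 tb).zpow_right n).symm.eq)

theorem fixF [T.Normal] (hx : Zc T b x) {g : A} (h : (g * x * g⁻¹) • b = b) : g • b = b :=
  ((hx.conj g).fix b h).symm

theorem nc0 [T.Normal] (hx : Zc T b x) : T ⊓ 𝒩(zpowers x) ≤ 𝒞(zpowers x) := fun _ hg =>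
  cen0 hx hg.1 (fixF hx (mem_stabilizer_iff.1 (zpowers_le.2 (mem_stabilizer_iff.2 hx.self)
    ((mem_normalizer_iff.1 hg.2 x).1 (mem_zpowers x)))))

variable [Finite A] [T.Normal]

theorem ne_pq (hx : Zc T b x) (ox : Nat.card (zpowers x) = p) (hq : q.Prime) (hS : IsPGroup q S) (n : x ∈ 𝒩(S))
    (hu : u ∈ S) (ub : u • b ≠ b) : p ≠ q := by
  rintro rfl
  have := Fact.mk hq
  have hP : IsPGroup p (S ⊔ zpowers x : Subgroup A) := isPGroup_sup' hS (pr_isP ox) (zpowers_le.2 n)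
  have lt : (S ⊔ zpowers x) ⊓ stabilizer A b < S ⊔ zpowers x :=
    lt_of_le_of_ne inf_le_left fun e => ub (e.ge (mem_sup_left hu)).2
  obtain ⟨g, hg, hg'⟩ := SetLike.exists_of_lt (lt_inf_normalizer_of_isPGroup hP lt)
  exact hg' ⟨hg.1, fixF hx ((mem_normalizer_iff.1 hg.2 x).1 ⟨mem_sup_right (mem_zpowers x), hx.self⟩).2⟩

theorem stab_norm (hz : ∀ e ∈ T, e ≠ 1 → (∀ t ∈ T, t • b = b → Commute t e) → Zc T b e) (hx : Zc T b x)
    (ox : Nat.card (zpowers x) = p) (hp : p.Prime) (hq : q.Prime) (pq : p ≠ q) (hS : IsPGroup q S) (hST : S ≤ T)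
    (hn : ∀ z, Zc T b z → z ∈ 𝒩(S)) (hu : u ∈ S) (ub : u • b ≠ b) {a : A} (ha : a • b = b) :
    cj a (zpowers x) = zpowers x := by
  have := Fact.mk hp
  have := Fact.mk hq
  have oy : Nat.card (zpowers (a * x * a⁻¹)) = p := by rw [← cjz, card_cj, ox]
  have hy : Zc T b (a * x * a⁻¹) := by simpa only [ha] using hx.conj a
  rw [cjz]
  generalize a * x * a⁻¹ = y at oy hy
  have c1 : ∀ w, Zc T b w → zpowers w ≤ T ⊓ 𝒞(T ⊓ stabilizer A b) := fun w hw => zpowers_le.2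
    ⟨hw.mem, mem_centralizer_iff.2 fun t ht => ((hw.iff t ht.1).1 ht.2).eq⟩
  have c2 : ∀ w, Zc T b w → zpowers w ≤ T ⊓ stabilizer A b := fun w hw => zpowers_le.2 ⟨hw.mem, hw.self⟩
  have hC := sup_le (c1 x hx) (c1 y hy)
  have hE := sup_le (c2 x hx) (c2 y hy)
  have hab : IsMulCommutative (zpowers x ⊔ zpowers y : Subgroup A) :=
    le_centralizer_iff_isMulCommutative.1 (hC.trans (inf_le_right.trans (cent_mono hE)))
  have hP : IsPGroup p (zpowers x ⊔ zpowers y : Subgroup A) := isPGroup_sup (pr_isP ox) (pr_isP oy)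
    ((c1 x hx).trans (inf_le_right.trans ((cent_mono (c2 y hy)).trans (cent_le_norm _))))
  by_cases hc : IsCyclic (zpowers x ⊔ zpowers y : Subgroup A)
  · exact CL.Odd.S13.eq_of_card_eq_cyclic hc le_sup_right le_sup_left (oy.trans ox.symm)
  · refine absurd (le_of_forall_centralizer_le (M := stabilizer A b) hc
      (sup_le (zpowers_le.2 (hn x hx)) (zpowers_le.2 (hn y hy))) (IsPGroup.coprime_card_of_ne p q pq _ _ hP hS)
      (fun e he e1 w hw => ?_) hu) ub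
    exact ((hz e (hC he).1 e1 fun t ht tb => mem_centralizer_iff.1 (hC he).2 t ⟨ht, tb⟩).iff w (hST hw.1)).2
      (mem_centralizer_singleton_iff.1 hw.2)

omit [T.Normal] in
/-- the base line -/
theorem base {A0 : Subgroup A} (ox : Nat.card A0 = p) (hp : p.Prime) (hq : q.Prime) (pq : p ≠ q) (hS : IsPGroup q S)
    (n : A0 ≤ 𝒩(S)) (hu : u ∈ S) : dr (A0 ⊔ cj u A0) ≤ S ∧ ∃ k ∈ dr (A0 ⊔ cj u A0), cj k A0 = cj u A0 := by
  have := Fact.mk hp
  have := Fact.mk hq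
  have l : A0 ⊔ cj u A0 ≤ S ⊔ A0 := sup_le le_sup_right (cj_le_of_mem le_sup_right (mem_sup_left hu))
  refine ⟨(dr_mono l).trans (dr_sup_le n (pr_comm hp ox)), ?_⟩
  obtain ⟨m, hm⟩ := IsPGroup.iff_card.1 hS
  have d : Nat.card (A0 ⊔ cj u A0 : Subgroup A) ∣ p * q ^ m := by
    rw [← ox, ← hm, ← card_sup_mul_card_inf n, sup_comm A0 S]
    exact (card_dvd_of_le l).mul_right _
  have s : ∀ C : Subgroup A, Nat.card C = p → C ≤ A0 ⊔ cj u A0 → IsSylowIn p C (A0 ⊔ cj u A0) := fun C hC c =>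
    ⟨c, pr_isP hC, fun j => by
      rw [← card_mul_relIndex c, hC, Nat.mul_dvd_mul_iff_left hp.pos] at d
      exact pq ((Nat.prime_dvd_prime_iff_eq hp hq).1 (hp.dvd_of_dvd_pow (j.trans d)))⟩
  obtain ⟨g, g1, g2⟩ := syl_conj (s A0 ox le_sup_left) (s _ ((card_cj u A0).trans ox) le_sup_right)
  have e : A0 ⊔ cj u A0 ≤ dr (A0 ⊔ cj u A0) ⊔ A0 := sup_le le_sup_right (g2.ge.trans
    ((cj_le_br g1).trans (sup_le_sup_right (commutator_mono le_rfl le_sup_left) _)))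
  obtain ⟨w, w1, y, y1, rfl⟩ := (mem_sup_nl (le_sup_left.trans (n_dr le_normalizer))).1 (e g1)
  exact ⟨w, w1, by rw [← g2, cj_mul, cj_eq (le_normalizer y1)]⟩

end CenH

open CenH in
theorem cenP (hm : MainP.{u}) (hz : ZcP.{u}) (hl : LocP.{u}) : CenP.{u} := by
  intro A Ω _ _ _ _ _ h2 T hT hab b z zT z1 zc
  have := hT.normal
  obtain ⟨p, hp, hd⟩ := Nat.exists_prime_and_dvd (mt orderOf_eq_one_iff.1 z1)
  have ox' := orderOf_pow_orderOf_div (orderOf_pos z).ne' hd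
  obtain ⟨hx, xx⟩ := hz A Ω h2 T hT hab b (z ^ (orderOf z / p)) (pow_mem zT _)
    (fun e => hp.one_lt.ne' (by rw [← ox', e, orderOf_one])) fun t ht tb => (zc t ht tb).pow_right _
  generalize z ^ (orderOf z / p) = x at ox' hx xx
  have ox : Nat.card (zpowers x) = p := by rw [Nat.card_zpowers, ox']
  have p2 : p ≠ 2 := fun e => xx (by rw [← pow_two, ← e, ← ox', pow_orderOf_eq_one])
  have : Nontrivial Ω := CL.Perm.nontrivial_of_ne_bot hT.ne_bot
  obtain ⟨c, hc⟩ := exists_ne b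
  obtain ⟨q, S, hq, hS, hST, hn, ⟨u, hu, rfl⟩, hpow⟩ := hl A Ω h2 T b c x hx hc
  have pq := ne_pq hx ox hq hS (hn x hx) hu hc
  have eqc : ∀ a a' : A, a • b = a' • b → cj a (zpowers x) = cj a' (zpowers x) := fun a a' h => by
    have := stab_norm (fun e he e1 k => (hz A Ω h2 T hT hab b e he e1 k).1) hx ox hp hq pq hS hST hn hu hc
      (a := a'⁻¹ * a) (by rw [mul_smul, h, inv_smul_smul])
    rw [← mul_inv_cancel_left a' a, cj_mul, this]
  obtain ⟨bS, k, k1, k2⟩ := base ox hp hq pq hS (zpowers_le.2 (hn x hx)) hu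
  let D : Set (Subgroup A) := {B | ∃ a, cj a (zpowers x) = B}
  have card : ∀ B ∈ D, Nat.card B = p := by
    rintro _ ⟨a, rfl⟩
    rw [card_cj, ox]
  have inv : ∀ B ∈ D, ∀ g, cj g B ∈ D := by
    rintro _ ⟨a, rfl⟩ g
    exact ⟨g * a, cj_mul _ _ _⟩
  have tr : ∀ B ∈ D, ∀ C ∈ D, B ≠ C → ∃ g, cj g (zpowers x) = B ∧ cj g (cj u (zpowers x)) = C := by
    rintro _ ⟨a, rfl⟩ _ ⟨a', rfl⟩ ne
    obtain ⟨g, g1, g2⟩ := is_two_pretransitive_iff.1 h2 hc.symm (mt (eqc a a') ne)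
    exact ⟨g, eqc _ _ g1, by rw [← cj_mul]; exact eqc _ _ (by rw [mul_smul, g2])⟩
  have dg0 : ∀ B ∈ D, dr (B ⊔ B) = ⊥ := fun B hB => by
    rw [sup_idem]
    exact commutator_eq_bot_iff'.2 (pr_comm hp (card B hB))
  have hDT : dg D ⊤ ≤ T := dg_le_of (by
    rintro _ ⟨a, rfl⟩ -
    rw [cjz]
    exact zpowers_le.2 (hx.conj a).mem)
  have hyp : CL.FS2.Hyp p q D := by
    refine ⟨hp, hq, p2, pq, card, inv, fun B hB C hC => ?_, fun B hB C hC => ?_, ?_, fun q2 B hB C hC w hw => ?_, ?_⟩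
    · by_cases e : B = C
      · rw [← e, dg0 B hB]
        exact IsPGroup.of_bot
      · obtain ⟨g, rfl, rfl⟩ := tr B hB C hC e
        rw [← cj_dr]
        exact isPGroup_cj (hS.to_le bS) g
    · by_cases e : B = C
      · exact ⟨1, one_mem _, e ▸ cj_one B⟩
      · obtain ⟨g, rfl, rfl⟩ := tr B hB C hC e
        refine ⟨g * k * g⁻¹, cj_dr g _ _ ▸ conj_mem_cj g k1, ?_⟩
        rw [← cj_mul, inv_mul_cancel_right, cj_mul, k2]
    · have key : ∀ B ∈ D, ∀ C ∈ D, B ≠ C →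
          (dr (dr (B ⊔ C)) = ⊥ ↔ dr (dr (zpowers x ⊔ cj u (zpowers x))) = ⊥) := fun B hB C hC e => by
        obtain ⟨g, rfl, rfl⟩ := tr B hB C hC e
        rw [← cj_dr, dr, ← cj_commutator, cj_eq_bot]
      by_cases e0 : dr (dr (zpowers x ⊔ cj u (zpowers x))) = ⊥
      · refine Or.inl fun B hB C hC => ?_
        by_cases e : B = C
        · rw [← e, dg0 B hB]
          exact commutator_bot_left _
        · exact (key B hB C hC e).2 e0
      · exact Or.inr (CL.FS2.alt_of hp card inv hq pq fun B hB C hC e => mt (key B hB C hC e).1 e0)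
    · by_cases e : B = C
      · rw [← e, dg0 B hB, mem_bot] at hw
        rw [hw, one_mul]
        exact one_mem _
      · obtain ⟨g, rfl, rfl⟩ := tr B hB C hC e
        rw [← cj_dr] at hw
        have h1 := bS (mem_cj.1 hw)
        have h3 := cen0 hx (pow_mem (hST h1) q) (hpow _ h1)
        rw [← cj_cent, mem_cj]
        rw [q2, pow_two] at h3
        simpa only [mul_assoc, mul_inv_cancel_left] using h3
    · rintro _ ⟨a, rfl⟩
      rw [cjz]
      exact (inf_le_inf_right _ hDT).trans (nc0 (hx.conj a))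
  have hq' := hm A p q D hyp
  have : (dg D ⊤).Normal := normalizer_eq_top_iff.1 (top_le_iff.1 (hyp.n_dg le_normalizer))
  have xD : zpowers x ∈ D := ⟨1, cj_one _⟩
  rw [hT.eq_of_le (K := dg D ⊤) (fun e => hx.ne (mem_bot.1 (e.le (le_dg xD le_top (mem_zpowers x))))) hDT,
    hT.eq_of_le (K := dr T) (fun e => hab (le_centralizer_iff_isMulCommutative.1 (commutator_eq_bot_iff'.1 e)))
      (dr_le T)] at hq'
  have := Fact.mk hq
  exact hab (hT.isElementaryAbelian_of_isPGroup hq').1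

end CL.DT
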